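import Cfsg.Agent.H515.OddM.NegRows
import Cfsg.Agent.H129.RealTw

/-!
# S4785 (TEAM ODDM): `³D₄(q)`: the full parts of the class 12 (helper515)
-/

set_option autoImplicit false
set_option linter.unusedSectionVars false

namespace Cfsg.Agent.H515.OddM

open Cfsg Cfsg.Lie Cfsg.Agent.H129 Cfsg.Agent.Nodes.RGDChev Cfsg.Agent.H129.TorusTw Cfsg.Agent.H129.CycCard
  Cfsg.Agent.H129.RealT Cfsg.Agent.H129.CycT Cfsg.Agent.H56.Exc Cfsg.Agent.H453.OddM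
open Cfsg.Agent.H436 (Prim exists_prim)

universe u

variable {F : Type u} [Field F] [Fintype F] {q : ℕ}

theorem off_D4_12 (hq : IsPrimePow q) (hF : Fintype.card F = q ^ 3) {K : Subgroup ↥(twistedD4 F q)}
    (hK : ∀ x, IsReal x → ∃ g : ↥(twistedD4 F q), g * x * g⁻¹ ∈ K) {r : ℕ} (hr : Prim q 12 r) : ¬ r ∣ K.index := by
  have h := prim_dvd_12 hr
  have hlt := prim_lt hr (by norm_num)
  obtain ⟨m, hm⟩ := exists_nat (z := 1 - (q : ℤ) ^ 2 + (q : ℤ) ^ 4)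
    (by nlinarith [sq_nonneg ((q : ℤ) ^ 2 - 1)])
  have hrm : r ∣ m := dvd_of_int h (by rw [hm, mul_one])
  have hrW := TwD4Cyc.not_dvd_W hr.prime (by omega) (by omega)
  have hG : ∀ s, ¬ (r : ℤ) ∣ Gq DataD4C.B (q : ℤ) (DataD4C.R s) := fun s hs =>
    not_one hr.prime (DataD4C.dvd_of_G h s hs)
  obtain ⟨T, h1, h3, h5, h6⟩ := TwT.tri_T hq hF DataD4C.hA DataD4C.chainOK DataD4C.hd_pi DataD4C.cycOK DataD4C.rootOK
    DataD4C.chain2OK DataD4C.hd2_eq (N := m)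
    (by rw [DataD4C.fN_eq, hm]) (UntwData.coprime_of_eq (a := -(q : ℤ) + (q : ℤ) ^ 3) (by rw [hm]; ring))
  obtain ⟨y, hy⟩ := h6 r hr.prime hrm hrW hG
  refine not_dvd_index h1 hr.prime (h3 ▸ hrm) (h5 r hr.prime hrW hG) (fun x hx _ => ⟨y ^ 2, ?_⟩) hK
  have hx1 : x ^ m = 1 := by
    have h7 : (⟨x, hx⟩ : ↥T) ^ Nat.card ↥T = 1 := pow_card_eq_one'
    rw [h3] at h7
    exact congrArg Subtype.val h7
  have h10 : m ∣ (q ^ 3) ^ 2 + 1 := by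
    have h11 : (m : ℤ) ∣ (((q ^ 3) ^ 2 + 1 : ℕ) : ℤ) := by
      rw [hm]
      push_cast
      exact ⟨(q : ℤ) ^ 2 + 1, by ring⟩
    exact Int.natCast_dvd_natCast.1 h11
  exact inv_of_act h10 hy hx (orderOf_dvd_of_pow_eq_one hx1)

end Cfsg.Agent.H515.OddM
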