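import Cfsg.Agent.H453.OddM.Defs
import Cfsg.Agent.ChevalleyStructure.Elts
import Cfsg.Agent.ChevalleyStructure.D4Perfect
import Cfsg.Agent.S1032

/-!
# S4785 (TEAM ODDM): real root elements (helper515)

`realP_root` : `RealP (D.group F) p` if some root `s` has odd Cartan integer with a fundamental root;
`realP_root_d4` : `RealP (twistedD4 K q) p`.
-/

set_option autoImplicit false

namespace Cfsg.Agent.H515.OddM

open Cfsg Cfsg.Lie Cfsg.Agent.ChevalleyStructure Cfsg.Agent.ChevalleyStructure.Elts Cfsg.Agent.H453.OddM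

universe u

section root

variable {D : ChevalleyDatum} (hD : InList D) {F : Type u} [Field F]

theorem xG_one_pow (r : ℕ) (n : ℕ) : xG hD r (1 : F) ^ n = xG hD r (n : F) := by
  induction n with
  | zero => rw [pow_zero, Nat.cast_zero, xG_zero]
  | succ n ih => rw [pow_succ, ih, xG_add, Nat.cast_succ]

theorem orderOf_xG {r : ℕ} (hr : r < D.nroots) (p : ℕ) [hp : Fact p.Prime] [CharP F p] :
    orderOf (xG hD r (1 : F)) = p := by
  refine orderOf_eq_prime ?_ ?_
  · rw [xG_one_pow, CharP.cast_eq_zero, xG_zero]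
  · rw [Ne, xG_eq_one_iff hD hr]
    exact one_ne_zero

theorem hG_conj_x {i s : ℕ} (hi : i < D.rank) (hs : s < D.nroots) {c : F} (hc : c ≠ 0) (t : F) :
    hG hD (D.simple i) c * xG hD s t * (hG hD (D.simple i) c)⁻¹ = xG hD s (c ^ D.cartan i s * t) := by
  rw [mul_inv_eq_iff_eq_mul]
  refine Units.ext ?_
  rw [Units.val_mul, Units.val_mul, coe_hG, coe_xG, coe_xG]
  exact Cfsg.Agent.S1032.result D hD i s hi hs c hc t

include hD in
/-- **A real root element.** -/
theorem realP_root {i s : ℕ} (hi : i < D.rank) (hs : s < D.nroots) (ho : Odd (D.cartan i s)) (p : ℕ)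
    [hp : Fact p.Prime] [CharP F p] : RealP ↥(D.group F) p := by
  refine ⟨⟨xG hD s 1, xG_mem_group hD s 1⟩, ?_, ⟨hG hD (D.simple i) (-1), hG_mem_group hD _ _⟩, ?_⟩
  · rw [Subgroup.orderOf_mk]
    exact orderOf_xG hD hs p
  · refine Subtype.ext ?_
    show hG hD (D.simple i) (-1 : F) * xG hD s 1 * (hG hD (D.simple i) (-1 : F))⁻¹ = (xG hD s 1)⁻¹
    rw [hG_conj_x hD hi hs (neg_ne_zero.2 one_ne_zero), xG_inv]
    congr 1
    rw [mul_one]
    exact ho.neg_one_zpow

end root

/-- `G₂` -/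
theorem realP_root_g2 {F : Type u} [Field F] (p : ℕ) [Fact p.Prime] [CharP F p] : RealP ↥(chevG2.group F) p :=
  realP_root (D := chevG2) (by simp [InList]) (i := 0) (s := chevG2.simple 1) (by decide +kernel) (by decide +kernel)
    (by decide +kernel) p

section d4

open Cfsg.Agent.ChevalleyStructure.D4Perfect Cfsg.Agent.ChevalleyStructure.D4HConj

variable {K : Type u} [Field K]

theorem cartan_14 : SparseHDiag.cartanRS chevD4 18 14 = -1 ∧ SparseHDiag.cartanRS chevD4 13 14 = -1 ∧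
    SparseHDiag.cartanRS chevD4 12 14 = -1 := by decide +kernel

theorem d4_pow (r : ℕ) (n : ℕ) : (D4Comm.xG r (1 : K) : GL chevD4.Idx K) ^ n = D4Comm.xG r (n : K) := by
  induction n with
  | zero => rw [pow_zero, Nat.cast_zero, D4Comm.xG_zero]
  | succ n ih => rw [pow_succ, ih, ← D4Comm.xG_add, Nat.cast_succ]

/-- `³D₄` -/
theorem realP_root_d4 [Fintype K] {q : ℕ} (hq : IsPrimePow q) (hK : Fintype.card K = q ^ 3) (p : ℕ)
    [hp : Fact p.Prime] [CharP K p] : RealP ↥(twistedD4 K q) p := by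
  obtain ⟨φ, hφ⟩ := D4Fixed.exists_frob hq hK
  refine ⟨⟨D4Comm.xG 14 1, x14_mem' hφ (map_one φ)⟩, ?_, ⟨hA φ (-1), hA_mem hφ _⟩, ?_⟩
  · rw [Subgroup.orderOf_mk]
    refine orderOf_eq_prime ?_ ?_
    · rw [d4_pow, CharP.cast_eq_zero, D4Comm.xG_zero]
    · intro h
      have h1 : chevD4.x K 14 1 = 1 := congrArg Units.val h
      exact one_ne_zero ((x_eq_one_iff (D := chevD4) (by simp [InList]) (by decide +kernel) (1 : K)).1 h1)
  · refine Subtype.ext ?_
    show hA φ (-1) * D4Comm.xG 14 1 * (hA φ (-1))⁻¹ = (D4Comm.xG 14 1)⁻¹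
    obtain ⟨h1, h2, h3⟩ := cartan_14
    rw [hA_conj (by norm_num) (neg_ne_zero.2 one_ne_zero), h1, h2, h3, ← D4Comm.xG_neg]
    congr 1
    simp only [map_neg, map_one, zpow_neg, zpow_one, inv_neg, inv_one]
    ring

end d4

end Cfsg.Agent.H515.OddM
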